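import Cfsg.Agent.H877.TW.KillA
import Cfsg.Agent.S2315

/-!
# Counting the `p`-elements of a parabolic subgroup (helper877)
-/

set_option autoImplicit false

open Cfsg Subgroup

namespace Cfsg.Agent.H877.TW

open Cfsg.Agent.H730.OZ

universe u

variable {G : Type u} [Group G]

theorem mem_pSet_iff {p : ℕ} (hp : p.Prime) {u : G} : u ∈ pSet p G ↔ ∃ k : ℕ, u ^ p ^ k = 1 := by
  constructor
  · rintro ⟨k, hk⟩
    exact ⟨k, by rw [← hk, pow_orderOf_eq_one]⟩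
  · rintro ⟨k, hk⟩
    obtain ⟨j, -, hj⟩ := (Nat.dvd_prime_pow hp).1 (orderOf_dvd_of_pow_eq_one hk)
    exact ⟨j, hj⟩

/-- powers of `v l` -/
theorem pow_mul_mem {P V : Subgroup G} (hn : ∀ g ∈ P, ∀ v ∈ V, g * v * g⁻¹ ∈ V) {v l : G} (hv : v ∈ V) (hl : l ∈ P)
    (n : ℕ) : ∃ w ∈ V, (v * l) ^ n = w * l ^ n := by
  induction n with
  | zero => exact ⟨1, one_mem _, by simp⟩
  | succ n ih =>
    obtain ⟨w, hw, e⟩ := ih
    refine ⟨w * (l ^ n * v * (l ^ n)⁻¹), mul_mem hw (hn _ (pow_mem hl n) v hv), ?_⟩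
    rw [pow_succ, e, pow_succ]
    group

theorem ncard_pel_mul [Finite G] {p : ℕ} [hp : Fact p.Prime] {P V L : Subgroup G} (hV : V ≤ P) (hL : L ≤ P)
    (hn : ∀ g ∈ P, ∀ v ∈ V, g * v * g⁻¹ ∈ V) (hVp : IsPGroup p V) (hVL : ∀ g ∈ P, ∃ v ∈ V, ∃ l ∈ L, g = v * l)
    (hd : ∀ g ∈ V, g ∈ L → g = 1) :
    (pSet p G ∩ (P : Set G)).ncard = Nat.card V * (pSet p G ∩ (L : Set G)).ncard := by
  rw [← Nat.card_coe_set_eq, ← Nat.card_coe_set_eq, ← Nat.card_prod]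
  symm
  refine Nat.card_congr (Equiv.ofBijective
    (fun x : V × ↥(pSet p G ∩ (L : Set G)) => (⟨x.1 * x.2, ?_, ?_⟩ : ↥(pSet p G ∩ (P : Set G)))) ⟨?_, ?_⟩)
  · rw [mem_pSet_iff hp.out]
    obtain ⟨k, hk⟩ := (mem_pSet_iff hp.out).1 x.2.2.1
    obtain ⟨w, hw, e⟩ := pow_mul_mem hn x.1.2 (hL x.2.2.2) (p ^ k)
    rw [hk, mul_one] at e
    obtain ⟨j, hj⟩ := hVp ⟨w, hw⟩
    refine ⟨k + j, ?_⟩
    rw [pow_add, pow_mul, e]
    exact congrArg Subtype.val hj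
  · exact mul_mem (hV x.1.2) (hL x.2.2.2)
  · rintro ⟨v, l, hl⟩ ⟨v', l', hl'⟩ h
    have h1 : (v : G) * l = v' * l' := congrArg Subtype.val h
    have h2 : (v' : G)⁻¹ * v = l' * l⁻¹ := by
      rw [eq_mul_inv_iff_mul_eq, mul_assoc, h1, inv_mul_cancel_left]
    have h3 := hd ((v' : G)⁻¹ * v) (mul_mem (inv_mem v'.2) v.2) (by rw [h2]; exact mul_mem hl'.2 (inv_mem hl.2))
    have h4 : (v : G) = v' := (inv_mul_eq_one.1 h3).symm
    rw [h3] at h2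
    have h5 : l' = l := mul_inv_eq_one.1 h2.symm
    subst h5
    have h6 : v = v' := Subtype.ext h4
    subst h6
    rfl
  · rintro ⟨g, hg, hgP⟩
    obtain ⟨v, hv, l, hl, rfl⟩ := hVL g hgP
    have hl2 : l ∈ pSet p G := by
      rw [mem_pSet_iff hp.out] at hg ⊢
      obtain ⟨k, hk⟩ := hg
      obtain ⟨w, hw, e⟩ := pow_mul_mem hn hv (hL hl) (p ^ k)
      refine ⟨k, ?_⟩
      rw [hk] at e
      apply hd _ _ (pow_mem hl _)
      rw [eq_inv_of_mul_eq_one_right e.symm]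
      exact inv_mem hw
    exact ⟨(⟨v, hv⟩, ⟨l, hl2, hl⟩), rfl⟩

/-- the `p`-elements of `L = S T`, `T` a `p'`-group, are in `S` -/
theorem pel_sub [Finite G] {p : ℕ} [hp : Fact p.Prime] {L S T : Subgroup G} (hS : S ≤ L) (hT : T ≤ L)
    (hn : ∀ g ∈ L, ∀ s ∈ S, g * s * g⁻¹ ∈ S) (hTp : ¬ p ∣ Nat.card T) (hST : ∀ g ∈ L, ∃ s ∈ S, ∃ t ∈ T, g = s * t) :
    pSet p G ∩ (L : Set G) = pSet p G ∩ (S : Set G) := by
  apply Set.Subset.antisymm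
  · rintro g ⟨hg, hgL⟩
    refine ⟨hg, ?_⟩
    obtain ⟨s, hs, t, ht, rfl⟩ := hST g hgL
    obtain ⟨k, hk⟩ := (mem_pSet_iff hp.out).1 hg
    obtain ⟨w, hw, e⟩ := pow_mul_mem hn hs (hT ht) (p ^ k)
    have h1 : t ^ p ^ k ∈ S := by
      rw [hk] at e
      rw [eq_inv_of_mul_eq_one_right e.symm]
      exact inv_mem hw
    have h2 : Nat.Coprime (p ^ k) (Nat.card T) := Nat.Coprime.pow_left k ((Nat.Prime.coprime_iff_not_dvd hp.out).2 hTp)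
    obtain ⟨j, hj1, hj2⟩ := Nat.chineseRemainder h2 0 1
    have h3 : t ^ j = t := by
      have h4 : (⟨t, ht⟩ : T) ^ j = (⟨t, ht⟩ : T) ^ 1 := by
        rw [pow_eq_pow_iff_modEq]
        exact hj2.of_dvd (orderOf_dvd_natCard _)
      have h5 := congrArg Subtype.val h4
      rw [pow_one] at h5
      exact h5
    obtain ⟨c, hc⟩ := (Nat.modEq_zero_iff_dvd).1 hj1
    have h6 : t ∈ S := by
      rw [← h3, hc, pow_mul]
      exact pow_mem h1 c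
    exact mul_mem hs h6
  · rintro g ⟨hg, hgS⟩
    exact ⟨hg, hS hgS⟩

theorem ncard_pSet_range [Finite G] {p : ℕ} (H : Subgroup G) :
    (pSet p G ∩ (H : Set G)).ncard = Nat.card {g : H // ∃ k : ℕ, orderOf g = p ^ k} := by
  rw [← Nat.card_coe_set_eq]
  exact Nat.card_congr ⟨fun g => ⟨⟨g.1, g.2.2⟩, by
      obtain ⟨k, hk⟩ := g.2.1
      exact ⟨k, by rw [← hk, ← Subgroup.orderOf_coe]⟩⟩, fun g => ⟨g.1.1, by
      obtain ⟨k, hk⟩ := g.2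
      exact ⟨⟨k, by rw [← hk, ← Subgroup.orderOf_coe]⟩, g.1.2⟩⟩, fun _ => rfl, fun _ => rfl⟩

/-- the `p`-elements of the image of `SL₂` -/
theorem ncard_pel_sl [Finite G] {p : ℕ} [hp : Fact p.Prime] {F : Type*} [Field F] [Fintype F] [CharP F p]
    (φ : Matrix.SpecialLinearGroup (Fin 2) F →* G) (hφ : ∀ g, φ g = 1 → g ∈ center (Matrix.SpecialLinearGroup (Fin 2) F)) :
    (pSet p G ∩ (φ.range : Set G)).ncard = Fintype.card F ^ 2 := by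
  rw [ncard_pSet_range]
  have h1 : φ.ker ≤ center (Matrix.SpecialLinearGroup (Fin 2) F) := fun g hg => hφ g hg
  have hc : (Nat.card φ.ker).Coprime p :=
    Nat.Coprime.coprime_dvd_left (Subgroup.card_dvd_of_le h1) (Cfsg.Agent.S2315.card_center_coprime p 2)
  have h2 := Cfsg.Agent.H115.card_pel_quot (p := p) φ.ker h1 hc
  rw [← Cfsg.Agent.H115.card_pel_equiv (p := p) (QuotientGroup.quotientKerEquivRange φ), ← h2,
    ← Cfsg.Agent.S2315.card_pel_GL p 2]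
  exact Cfsg.Agent.S2315.result p 2

/-- **The count for a parabolic subgroup** `P = V S T` -/
theorem ncard_pel_par [Finite G] {p : ℕ} [hp : Fact p.Prime] {P V L T : Subgroup G} {F : Type*} [Field F] [Fintype F]
    [CharP F p] (φ : Matrix.SpecialLinearGroup (Fin 2) F →* G)
    (hφ : ∀ g, φ g = 1 → g ∈ center (Matrix.SpecialLinearGroup (Fin 2) F))
    (hV : V ≤ P) (hL : L ≤ P) (hn : ∀ g ∈ P, ∀ v ∈ V, g * v * g⁻¹ ∈ V) (hVp : IsPGroup p V)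
    (hVL : ∀ g ∈ P, ∃ v ∈ V, ∃ l ∈ L, g = v * l) (hd : ∀ g ∈ V, g ∈ L → g = 1)
    (hS : φ.range ≤ L) (hT : T ≤ L) (hnS : ∀ g ∈ L, ∀ s ∈ φ.range, g * s * g⁻¹ ∈ φ.range) (hTp : ¬ p ∣ Nat.card T)
    (hST : ∀ g ∈ L, ∃ s ∈ φ.range, ∃ t ∈ T, g = s * t) :
    (pSet p G ∩ (P : Set G)).ncard = Nat.card V * Fintype.card F ^ 2 := by
  rw [ncard_pel_mul hV hL hn hVp hVL hd, pel_sub hS hT hnS hTp hST, ncard_pel_sl φ hφ]

end Cfsg.Agent.H877.TW
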